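import Cfsg.Agent.H6.QO.Frame

/-!
# Rows for covers from a commuting pair whose lifts do not commute (S2491, S2492)

`π : U →* G` with central kernel generated by `z = [w, s]`. If every nontrivial element of `G` is a commutator `[x c x⁻¹, k]` with
`c = π(s) f(a)`, `f : A →* G`, `A` perfect, and `π(w)` commutes with `f(A)`, then every element of `U` is a commutator:
`w` conjugates a lift of `c` to its multiple by `z`.
-/

set_option autoImplicit false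

namespace Cfsg.Agent.H374.QS

open Subgroup Cfsg.Agent.H6.QO Cfsg.Agent.H777.Ore

universe u v w'

variable {U : Type u} {G : Type v} {A : Type w'} [Group U] [Group G] [Group A]

/-- `w` commutes with every lift of `f a`, if `A` is perfect -/
theorem lift_comm (hA : commutator A = ⊤) {π : U →* G} (hs : Function.Surjective π) (hc : π.ker ≤ center U)
    {f : A →* G} {w : U} (hwf : ∀ a, π w * f a * (π w)⁻¹ = f a) {a : A} {c : U} (hca : π c = f a) :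
    w * c * w⁻¹ = c := by
  -- the lifts of `f a` commute with `w`
  let H : Subgroup A :=
    { carrier := {a | ∀ c : U, π c = f a → w * c * w⁻¹ = c}
      one_mem' := by
        intro c hc1
        rw [map_one] at hc1
        have h1 := mem_center_iff.1 (hc hc1) w
        rw [h1]; group
      mul_mem' := by
        intro a b ha hb c hc1
        obtain ⟨c₁, h1⟩ := hs (f a)
        have h2 : π (c₁⁻¹ * c) = f b := by rw [map_mul, map_inv, h1, hc1, map_mul]; group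
        have h3 := ha c₁ h1
        have h4 := hb _ h2
        calc w * c * w⁻¹ = (w * c₁ * w⁻¹) * (w * (c₁⁻¹ * c) * w⁻¹) := by group
          _ = c := by rw [h3, h4]; group
      inv_mem' := by
        intro a ha c hc1
        have h1 : π c⁻¹ = f a := by rw [map_inv, hc1, map_inv, inv_inv]
        have h2 := ha _ h1
        calc w * c * w⁻¹ = (w * c⁻¹ * w⁻¹)⁻¹ := by group
          _ = c := by rw [h2, inv_inv] }
  have hH : commutator A ≤ H := by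
    rw [commutator_eq_closure, closure_le]
    rintro _ ⟨a, b, rfl⟩ c hc1
    obtain ⟨c₁, h1⟩ := hs (f a)
    obtain ⟨c₂, h2⟩ := hs (f b)
    -- `w c₁ w⁻¹ = c₁ ζ₁`
    have h3 : π (c₁⁻¹ * (w * c₁ * w⁻¹)) = 1 := by
      simp only [map_mul, map_inv]
      rw [h1, hwf a]; group
    have h4 : π (c₂⁻¹ * (w * c₂ * w⁻¹)) = 1 := by
      simp only [map_mul, map_inv]
      rw [h2, hwf b]; group
    obtain ⟨ζ₁, e1⟩ : ∃ ζ, ζ = c₁⁻¹ * (w * c₁ * w⁻¹) := ⟨_, rfl⟩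
    obtain ⟨ζ₂, e2⟩ : ∃ ζ, ζ = c₂⁻¹ * (w * c₂ * w⁻¹) := ⟨_, rfl⟩
    have g1 : w * c₁ * w⁻¹ = c₁ * ζ₁ := by rw [e1]; group
    have g2 : w * c₂ * w⁻¹ = c₂ * ζ₂ := by rw [e2]; group
    have hζ₁ := mem_center_iff.1 (hc (show π ζ₁ = 1 by rw [e1]; exact h3))
    have hζ₂ := mem_center_iff.1 (hc (show π ζ₂ = 1 by rw [e2]; exact h4))
    have h5 : π ((c₁ * c₂ * c₁⁻¹ * c₂⁻¹)⁻¹ * c) = 1 := by
      rw [map_mul, hc1, map_inv]
      simp only [map_mul, map_inv, commutatorElement_def, h1, h2]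
      group
    obtain ⟨ζ, e3⟩ : ∃ ζ, ζ = (c₁ * c₂ * c₁⁻¹ * c₂⁻¹)⁻¹ * c := ⟨_, rfl⟩
    have hζ := mem_center_iff.1 (hc (show π ζ = 1 by rw [e3]; exact h5))
    have e4 : c = (c₁ * c₂ * c₁⁻¹ * c₂⁻¹) * ζ := by rw [e3]; group
    have e5 : w * (c₁ * c₂ * c₁⁻¹ * c₂⁻¹) * w⁻¹ = c₁ * c₂ * c₁⁻¹ * c₂⁻¹ := by
      have k1 : ∀ x, ζ₁⁻¹ * x = x * ζ₁⁻¹ := fun x => by
        rw [inv_mul_eq_iff_eq_mul, ← mul_assoc, ← hζ₁ x]; group
      have k2 : ∀ x, ζ₂⁻¹ * x = x * ζ₂⁻¹ := fun x => by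
        rw [inv_mul_eq_iff_eq_mul, ← mul_assoc, ← hζ₂ x]; group
      calc w * (c₁ * c₂ * c₁⁻¹ * c₂⁻¹) * w⁻¹
          = (w * c₁ * w⁻¹) * (w * c₂ * w⁻¹) * (w * c₁ * w⁻¹)⁻¹ * (w * c₂ * w⁻¹)⁻¹ := by group
        _ = c₁ * (ζ₁ * (c₂ * ζ₂)) * (ζ₁⁻¹ * c₁⁻¹) * (ζ₂⁻¹ * c₂⁻¹) := by rw [g1, g2]; group
        _ = c₁ * ((c₂ * ζ₂) * ζ₁) * (c₁⁻¹ * ζ₁⁻¹) * (c₂⁻¹ * ζ₂⁻¹) := by rw [← hζ₁ (c₂ * ζ₂), k1, k2]
        _ = c₁ * (c₂ * ζ₂) * (ζ₁ * (c₁⁻¹ * ζ₁⁻¹)) * (c₂⁻¹ * ζ₂⁻¹) := by group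
        _ = c₁ * (c₂ * ζ₂) * (c₁⁻¹ * ζ₁⁻¹ * ζ₁) * (c₂⁻¹ * ζ₂⁻¹) := by rw [← hζ₁ (c₁⁻¹ * ζ₁⁻¹)]
        _ = c₁ * c₂ * (ζ₂ * (c₁⁻¹ * c₂⁻¹)) * ζ₂⁻¹ := by group
        _ = c₁ * c₂ * (c₁⁻¹ * c₂⁻¹ * ζ₂) * ζ₂⁻¹ := by rw [← hζ₂ (c₁⁻¹ * c₂⁻¹)]
        _ = c₁ * c₂ * c₁⁻¹ * c₂⁻¹ := by group
    rw [e4]
    calc w * ((c₁ * c₂ * c₁⁻¹ * c₂⁻¹) * ζ) * w⁻¹
        = (w * (c₁ * c₂ * c₁⁻¹ * c₂⁻¹) * w⁻¹) * (w * ζ) * w⁻¹ := by group
      _ = (c₁ * c₂ * c₁⁻¹ * c₂⁻¹) * (ζ * w) * w⁻¹ := by rw [e5, hζ w]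
      _ = _ := by group
  have h1 : a ∈ H := hH (by rw [hA]; exact mem_top a)
  exact h1 c hca

/-- **The row of the cover.** -/
theorem allC_of_pairs (hA : commutator A = ⊤) {π : U →* G} (hs : Function.Surjective π) (hc : π.ker ≤ center U)
    {f : A →* G} {s w z : U} (hws : w * s * w⁻¹ = s * z) (hz1 : π z = 1) (hz : ∀ ζ : U, π ζ = 1 → ζ ∈ zpowers z)
    (hwf : ∀ a, π w * f a * (π w)⁻¹ = f a)
    (hrow : ∀ g : G, g ≠ 1 → ∃ (x k : G) (a : A),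
      g = (x * (π s * f a) * x⁻¹) * k * (x * (π s * f a) * x⁻¹)⁻¹ * k⁻¹) : AllC U := by
  intro g
  have hzc := fun y => mem_center_iff.1 (hc hz1) y
  by_cases hg : π g = 1
  · -- central elements
    obtain ⟨n, rfl⟩ := hz g hg
    have hwz : Commute w z := hzc w
    have key : ∀ n : ℕ, w ^ n * s * (w ^ n)⁻¹ = s * z ^ n := by
      intro n
      induction n with
      | zero => simp
      | succ n ih =>
        have h2 : w * z ^ n = z ^ n * w := (hwz.pow_right n).eq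
        calc w ^ (n + 1) * s * (w ^ (n + 1))⁻¹ = w * (w ^ n * s * (w ^ n)⁻¹) * w⁻¹ := by rw [pow_succ']; group
          _ = w * s * z ^ n * w⁻¹ := by rw [ih]; group
          _ = (w * s * w⁻¹) * (w * z ^ n * w⁻¹) := by group
          _ = (w * s * w⁻¹) * z ^ n := by rw [h2]; group
          _ = s * z ^ (n + 1) := by rw [hws, pow_succ']; group
    have hsz : Commute s z := hzc s
    rcases Int.eq_nat_or_neg n with ⟨m, rfl | rfl⟩
    · refine ⟨w ^ m, s, ?_⟩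
      change z ^ (m : ℤ) = _
      rw [key m, (hsz.pow_right m).eq, zpow_natCast]; group
    · refine ⟨s, w ^ m, ?_⟩
      change z ^ (-(m : ℤ)) = _
      have h3 : s * w ^ m * s⁻¹ * (w ^ m)⁻¹ = (w ^ m * s * (w ^ m)⁻¹ * s⁻¹)⁻¹ := by group
      rw [h3, key m, (hsz.pow_right m).eq, zpow_neg, zpow_natCast]; group
  · obtain ⟨x, k, a, e⟩ := hrow _ hg
    obtain ⟨x, rfl⟩ := hs x
    obtain ⟨c, hca⟩ := hs (f a)
    have h1 := lift_comm hA hs hc hwf hca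
    refine isC_of_pair_zpowers hs hc hz hz1 (x := x * (s * c) * x⁻¹) (k := k) ?_ ?_
    · rw [e]
      simp only [map_mul, map_inv, hca]
    · refine isConj_iff.2 ⟨x * w * x⁻¹, ?_⟩
      have hxz : z * x⁻¹ = x⁻¹ * z := (hzc x⁻¹).symm
      have hcz : z * c = c * z := (hzc c).symm
      calc x * w * x⁻¹ * (x * (s * c) * x⁻¹) * (x * w * x⁻¹)⁻¹
          = x * ((w * s * w⁻¹) * (w * c * w⁻¹)) * x⁻¹ := by group
        _ = x * (s * (z * c)) * x⁻¹ := by rw [hws, h1]; group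
        _ = x * (s * c) * (z * x⁻¹) := by rw [hcz]; group
        _ = x * (s * c) * x⁻¹ * z := by rw [hxz]; group

end Cfsg.Agent.H374.QS
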