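import Cfsg.Agent.H374.QS.St
import Cfsg.Agent.H194.Ore.RowEF

/-!
# Ore's theorem for the covers of `E₆(q)` (S2491, S2492)

* `exists_pair` : in Steinberg's group of type `E₆` over a field with a cube root of unity `ω`, a word `w` in the simple
  reflections and the torus element `s = Φ(ω^m)` have the commutator `z ≠ 1` generating the center;
* `rowA_E6` : every element of every cover of `E₆(q)`, `3 ∣ q - 1`, is a commutator.
-/

set_option autoImplicit false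
set_option linter.unusedSectionVars false

namespace Cfsg.Agent.H374.QS

open CoxeterSystem Cfsg.Agent.ChevalleyStructure.CoxeterGeom Cfsg.Agent.Tits.Roots Cfsg.Agent.Tits.Core
  Cfsg.Agent.Nodes.Reps Cfsg.Agent.Nodes.BNOf Cfsg.Agent.Nodes.RGDLib Cfsg.Agent.Nodes.Bruhat
  Cfsg.Agent.Nodes.OppDec Cfsg.Agent.Nodes.LeviDec Cfsg.Agent.Nodes.KindChev Cfsg.Agent.Nodes.ChevCls
  Cfsg.Agent.OddHalf.NI.ModelChev Cfsg.Agent.Nodes.StabComb
  Cfsg.Agent.H162.GaussDec Cfsg.Agent.H162.GaussLevi Cfsg.Agent.H162.GaussSL Cfsg.Agent.H162.GaussReg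
  Cfsg.Agent.H928.Ore.Frame Cfsg.Agent.H928.Ore.Fix
open Cfsg.Lie Cfsg.Agent.ChevalleyStructure Cfsg.Agent.ChevalleyStructure.Elts
  Cfsg.Agent.ChevalleyStructure.RootVec Cfsg.Agent.ChevalleyStructure.NPerm
  Cfsg.Agent.ChevalleyStructure.CoxeterGeomTypes Cfsg.Agent.Nodes.RGDChev Cfsg.Agent.KFacts.RgdChevCoord
open Cfsg.Agent.ChevalleyStructure.StBasic (stn sth stn_eq sth_eq stGen_mul stGen_zero stGen_neg)
open Cfsg.Agent.TitsThree.KExcRT Cfsg.Agent.H129.TorusChar Cfsg.Agent.H777.Ore Cfsg.Agent.H194.Ore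
open Cfsg.Agent.H162.GaussExc (sg sg_mem ch_sg act_sg wd fr fr_lt)
open Cfsg.Agent.H162.GaussExcMain (r6)
open Cfsg.Agent.H224.Ore.Row (not_mem_core)
open Cfsg.Agent.H6.QO

universe u

/-! ### The pairs with the form of the first element -/

section

variable {D : ChevalleyDatum} {l : ℕ} {M : CoxeterMatrix (Fin l)} (hp : IsType D l M) {K : Type u} [Field K]
  {J : List (Fin l)} {m : Fin l → ℤ} {γ : Fin l → Fin l} {ω ω₁ : List (Fin l)} {r : Fin 3 → Fin 3 → ℕ} {ε : ℤ}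
  {i j : Fin l} (T : Tab D l J m γ ω ω₁ r ε i j) (t : Kˣ)

include T in
/-- the pairs for the frame; the first element is `s₀ φ(X)` -/
theorem pairs [Finite K] {φ : Matrix.SpecialLinearGroup (Fin 3) K →* ↥(D.group K)}
    (hφ : ∀ a b (hab : a ≠ b) c, φ (Matrix.SpecialLinearGroup.transvection hab c) =
      xc hp (vec D l (r a b)) ((ε : K) * c)) (hε : ε * ε = 1)
    (h1 : t ≠ 1) (h2 : t * t ≠ 1) (p : ℕ) [Fact p.Prime] [CharP K p]
    (hZ : Subgroup.center ↥(D.group K) = ⊥) {d : ℕ} {B : Fin l → Fin l → ℤ} (hB : InvC D l d B)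
    (hd : Odd d) (hm3 : M3 K) :
    ∀ v ∈ UNJ M.toCoxeterSystem hp.isCartan (XX D l K) {k | k ∈ J},
      ∀ u ∈ UJ M.toCoxeterSystem hp.isCartan (XX D l K) {k | k ∈ J}, ∃ c₁ c₂, v * u = c₁ * c₂ ∧
        LP M.toCoxeterSystem hp.isCartan (TT D K) (XX D l K) {k | k ∈ J} c₁ c₂ ∧
        (∃ y, c₂ = y * c₁⁻¹ * y⁻¹) ∧ ∃ X, c₁ = sg hp m t * φ X := by
  intro v hv u hu
  obtain ⟨L, hL, rfl⟩ := T.lo hp hφ hε hv
  obtain ⟨U, hU, rfl⟩ := T.up hp hφ hε hu
  obtain ⟨X, Y, hXY, hX, hY, hc⟩ := hm3 L hL U hU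
  have hsT : sg hp m t ∈ LJ M.toCoxeterSystem hp.isCartan (TT D K) (XX D l K) {k | k ∈ J} := T_le_LJ (sg_mem hp m t)
  have hti : (sg hp m t)⁻¹ = sg hp m t⁻¹ := by
    refine inv_eq_of_mul_eq_one_right ?_
    unfold sg
    rw [← map_mul]
    convert map_one (th hp)
    funext k
    rw [Pi.mul_apply, inv_zpow, mul_inv_cancel]
    rfl
  obtain ⟨y, hy1, hy2⟩ := T.real hp t hφ hε p hB hd hX
  refine ⟨sg hp m t * φ X, (sg hp m t)⁻¹ * φ Y, ?_, ⟨mul_mem hsT (T.range hp hφ X),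
    mul_mem (inv_mem hsT) (T.range hp hφ Y), (T.nf hp t hφ hε h1 h2 hX).2, ?_⟩, ?_, X, rfl⟩
  · rw [← map_mul, hXY, map_mul]
    have e1 := T.comm hp t hφ X
    rw [e1]; group
  · rw [hti]
    exact (T.nf hp t⁻¹ hφ hε (by rwa [ne_eq, inv_eq_one]) (by
      rw [← mul_inv, ne_eq, inv_eq_one]
      exact h2) hY).1
  · have e2 := T.comm hp t hφ
    have e5 : ∀ g, (sg hp m t)⁻¹ * φ g = φ g * (sg hp m t)⁻¹ := fun g => by
      calc (sg hp m t)⁻¹ * φ g = (sg hp m t)⁻¹ * (φ g * sg hp m t) * (sg hp m t)⁻¹ := by group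
        _ = _ := by rw [← e2]; group
    rcases hc with hc | hc
    · obtain ⟨g, hg⟩ := Cfsg.Agent.H150.MF.exists_conj (Cfsg.Agent.H150.MF.cls_of_irreducible hX)
        (Cfsg.Agent.H150.MF.cls_of_irreducible hY) hc.symm
      refine ⟨φ g * wd hp K ω₁ * y⁻¹, ?_⟩
      have e1 : (sg hp m t * φ X)⁻¹ = y * (sg hp m t * φ X) * y⁻¹ := hy2.symm
      have e3 := wd_sg hp t p hZ T.wm
      have e4 := T.wd_phi hp hφ X
      calc (sg hp m t)⁻¹ * φ Y = ((sg hp m t)⁻¹ * φ g) * φ X * (φ g)⁻¹ := by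
            rw [hg, map_mul, map_mul, map_inv]; group
        _ = φ g * ((sg hp m t)⁻¹ * φ X) * (φ g)⁻¹ := by rw [e5]; group
        _ = φ g * ((wd hp K ω₁ * sg hp m t * (wd hp K ω₁)⁻¹) * (wd hp K ω₁ * φ X * (wd hp K ω₁)⁻¹)) * (φ g)⁻¹ := by
          rw [e3, e4]
        _ = (φ g * wd hp K ω₁ * y⁻¹) * (y * (sg hp m t * φ X) * y⁻¹) * (φ g * wd hp K ω₁ * y⁻¹)⁻¹ := by group
        _ = _ := by rw [← e1]
    · have hXi : Irreducible ((X⁻¹ : Matrix.SpecialLinearGroup (Fin 3) K) : Matrix (Fin 3) (Fin 3) K).charpoly := by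
        rw [← hc]
        exact hY
      obtain ⟨g, hg⟩ := Cfsg.Agent.H150.MF.exists_conj (Cfsg.Agent.H150.MF.cls_of_irreducible hXi)
        (Cfsg.Agent.H150.MF.cls_of_irreducible hY) hc.symm
      refine ⟨φ g, ?_⟩
      calc (sg hp m t)⁻¹ * φ Y = ((sg hp m t)⁻¹ * φ g) * (φ X)⁻¹ * (φ g)⁻¹ := by
            rw [hg, map_mul, map_mul, map_inv, map_inv]; group
        _ = φ g * (φ X * sg hp m t)⁻¹ * (φ g)⁻¹ := by rw [e5]; group
        _ = _ := by rw [← e2]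

end

/-! ### The commutator of the lifts -/

section

variable {K : Type u} [Field K] [Finite K]

theorem card_ker (h3 : 3 ∣ Nat.card K - 1) :
    Nat.card (StTheta.theta (Cfsg.Agent.Nodes.KindE.isType6).inList K).ker = 3 := by
  classical
  have := Fintype.ofFinite K
  rw [Cfsg.Agent.H65.MultE.ker_theta]
  have h1 := Cfsg.Agent.S1079.result (K := K) (q := Fintype.card K) rfl (chevE6, 3) (by simp)
  rw [Nat.card_eq_fintype_card] at h3
  rw [Nat.gcd_eq_left h3] at h1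
  exact h1

theorem pow_three (h3 : 3 ∣ Nat.card K - 1) (ζ : chevE6.SteinbergGroup K)
    (hζ : StTheta.theta (Cfsg.Agent.Nodes.KindE.isType6).inList K ζ = 1) : ζ ^ 3 = 1 := by
  have h1 := card_ker h3
  have h2 : (⟨ζ, hζ⟩ : (StTheta.theta (Cfsg.Agent.Nodes.KindE.isType6).inList K).ker) ^ 3 = 1 := by
    rw [← h1]; exact pow_card_eq_one'
  exact congrArg Subtype.val h2

theorem coprime_three (h3 : 3 ∣ Nat.card K - 1) (p : ℕ) [Fact p.Prime] [CharP K p] : (3 : ℕ).Coprime p := by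
  rw [Nat.coprime_primes Nat.prime_three Fact.out]
  rintro rfl
  have h1 : 3 ∣ Nat.card K := by
    have h2 := addOrderOf_dvd_natCard (1 : K)
    rwa [CharP.eq K (CharP.addOrderOf_one K) (inferInstance : CharP K 3)] at h2
  have h4 : 0 < Nat.card K := Nat.card_pos
  omega

/-- the word and the torus element -/
theorem exists_pair (h3 : 3 ∣ Nat.card K - 1) {ω : Kˣ} (hω : orderOf ω = 3) {m : Fin 6 → ℤ} {L : List (Fin 6)}
    (hk : ∀ s < chevE6.nroots, (3 : ℤ) ∣ ∑ i : Fin 6, (mvx chevE6 L m i - m i) * chevE6.cartan i s)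
    {k : Fin 6} (hk' : ¬ (3 : ℤ) ∣ mvx chevE6 L m k - m k) :
    ∃ s z : chevE6.SteinbergGroup K,
      StTheta.theta (Cfsg.Agent.Nodes.KindE.isType6).inList K s = sg Cfsg.Agent.Nodes.KindE.isType6 m ω ∧
      wt chevE6 K L * s * (wt chevE6 K L)⁻¹ = s * z ∧
      StTheta.theta (Cfsg.Agent.Nodes.KindE.isType6).inList K z = 1 ∧
      ∀ ζ, StTheta.theta (Cfsg.Agent.Nodes.KindE.isType6).inList K ζ = 1 → ζ ∈ Subgroup.zpowers z := by
  obtain ⟨p, hpc⟩ := CharP.exists K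
  have : Fact p.Prime := ⟨(CharP.char_is_prime_or_zero K p).resolve_right (CharP.char_ne_zero_of_finite K p)⟩
  have hker := Cfsg.Agent.H65.MultE.ker_theta (K := K) (Cfsg.Agent.Nodes.KindE.isType6).inList
  obtain ⟨Φ, hΦ, hinj, hiff⟩ : ∃ Φ : (Fin 6 → Kˣ) →* chevE6.SteinbergGroup K,
      (∀ (i : Fin 6) (x : Kˣ), Φ (Pi.mulSingle i x) = sth chevE6 (chevE6.simple i) (x : K)) ∧
      Function.Injective Φ ∧
      (∀ t : Fin 6 → Kˣ, Φ t ∈ Subgroup.center (chevE6.SteinbergGroup K) ↔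
        ∀ s < chevE6.nroots, ∏ i : Fin 6, t i ^ chevE6.cartan i s = 1) := Cfsg.Agent.H59.ESixCover.exists_torus K
  have hω3 : ω ^ 3 = 1 := by rw [← hω]; exact pow_orderOf_eq_one ω
  have h1 := wt_Ps Cfsg.Agent.Nodes.KindE.isType6 p (coprime_three h3 p) (pow_three h3)
    (fun ζ hζ => by rw [← hker]; exact hζ) (Φ := Φ) hΦ (by decide +kernel) ω m L
  have h2 : Φ (fun i => ω ^ (mvx chevE6 L m i - m i)) ∈ Subgroup.center (chevE6.SteinbergGroup K) :=
    Cfsg.Agent.H59.ESixCover.mem_center_of hiff hω3 _ hk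
  have h4 : StTheta.theta (Cfsg.Agent.Nodes.KindE.isType6).inList K (Φ (fun i => ω ^ (mvx chevE6 L m i - m i))) = 1 := by
    rw [← hker] at h2
    exact h2
  refine ⟨Φ (fun k => ω ^ m k), Φ (fun i => ω ^ (mvx chevE6 L m i - m i)), theta_Phi Cfsg.Agent.Nodes.KindE.isType6 hΦ _,
    ?_, h4, ?_⟩
  · rw [h1, ← map_mul]
    congr 1
    funext k
    rw [Pi.mul_apply, ← zpow_add, add_sub_cancel]
  · intro ζ hζ
    have h5 : Φ (fun i => ω ^ (mvx chevE6 L m i - m i)) ≠ 1 := by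
      intro h6
      have h7 := congrFun (hinj (h6.trans (map_one Φ).symm)) k
      have h8 : ω ^ (mvx chevE6 L m k - m k) = 1 := h7
      have h9 := orderOf_dvd_iff_zpow_eq_one.2 h8
      rw [hω] at h9
      exact hk' (by exact_mod_cast h9)
    have h6 : Nat.card (Subgroup.zpowers (Φ (fun i => ω ^ (mvx chevE6 L m i - m i)))) = 3 := by
      rw [Nat.card_zpowers]
      exact orderOf_eq_prime (pow_three h3 _ h4) h5
    have h7 : Subgroup.zpowers (Φ (fun i => ω ^ (mvx chevE6 L m i - m i))) =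
        (StTheta.theta (Cfsg.Agent.Nodes.KindE.isType6).inList K).ker := by
      have : Finite (StTheta.theta (Cfsg.Agent.Nodes.KindE.isType6).inList K).ker :=
        Nat.finite_of_card_ne_zero (by rw [card_ker h3]; norm_num)
      refine Subgroup.eq_of_le_of_card_ge (Subgroup.zpowers_le.2 h4) ?_
      rw [h6, card_ker h3]
    rw [h7]
    exact hζ

end

/-! ### The row -/

/-- the word for `E₆(q)` -/
def W6 : List (Fin 6) := [5, 4, 3, 2, 1, 3, 4, 5, 1, 3, 4, 2, 3, 0, 2, 1, 3, 4, 1, 3, 2, 0]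

theorem w6_block : ∀ a b : Fin 3, a ≠ b → fr chevE6 W6 (r6 a b) = r6 a b ∧ sgw chevE6 W6 (r6 a b) = 1 := by
  decide +kernel

theorem w6_tor : (∀ s < chevE6.nroots,
      (3 : ℤ) ∣ ∑ i : Fin 6, (mvx chevE6 W6 ![1, 0, 0, 0, 0, 1] i - (![1, 0, 0, 0, 0, 1] : Fin 6 → ℤ) i) * chevE6.cartan i s) ∧
    ¬ (3 : ℤ) ∣ mvx chevE6 W6 ![1, 0, 0, 0, 0, 1] 0 - (![1, 0, 0, 0, 0, 1] : Fin 6 → ℤ) 0 := by decide +kernel

theorem exists_omega {K : Type u} [Field K] [Finite K] (h3 : 3 ∣ Nat.card K - 1) : ∃ ω : Kˣ, orderOf ω = 3 := by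
  have h1 : 3 ∣ Nat.card Kˣ := by rwa [Nat.card_units]
  exact exists_prime_orderOf_dvd_card' 3 h1

/-- **Ore's theorem for Steinberg's group of type `E₆`**, `3 ∣ q - 1` -/
theorem allC_stE6 {K : Type u} [Field K] [Finite K] (h3 : 3 ∣ Nat.card K - 1) :
    AllC (chevE6.SteinbergGroup K) := by
  obtain ⟨p, hpc⟩ := CharP.exists K
  have : Fact p.Prime := ⟨(CharP.char_is_prime_or_zero K p).resolve_right (CharP.char_ne_zero_of_finite K p)⟩
  have hK : 4 ≤ Nat.card K := by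
    have h4 : 1 < Nat.card K := Finite.one_lt_card
    omega
  have hp := Cfsg.Agent.Nodes.KindE.isType6
  have := finite_W hp CoxeterMatrix.E₆.toCoxeterSystem
  have hS := Cfsg.Agent.S1054.result (F := K) chevE6 (by simp)
  have hZ := Cfsg.Agent.Nodes.ChevChart.center_eq_bot hS
  obtain ⟨φ, hφ⟩ := Cfsg.Agent.H162.GaussExcMain.exists_hom_D hp (K := K) (ε := 1) (by norm_num) tab6.ra tab6.rb tab6.rc
    tab6.rn
  obtain ⟨ω, hω⟩ := exists_omega h3
  have hω1 : ω ≠ 1 := by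
    rintro rfl
    rw [orderOf_one] at hω
    omega
  have hω2 : ω * ω ≠ 1 := by
    intro h
    have h1 := orderOf_dvd_of_pow_eq_one (x := ω) (n := 2) (by rw [pow_two]; exact h)
    rw [hω] at h1
    omega
  have hpr := pairs hp tab6 ω hφ (by norm_num) hω1 hω2 p hZ Cfsg.Agent.H129.TorusChar.invC_E6 (by decide)
    (m3_of_four hK)
  obtain ⟨s, z, e1, e2, e3, e4⟩ := exists_pair h3 hω w6_tor.1 w6_tor.2
  refine allC_of_pairs (A := Matrix.SpecialLinearGroup (Fin 3) K) (f := φ)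
    (Cfsg.Agent.LieClassical.SLGen.commutator_eq_top (by rw [Fintype.card_fin])) (StTheta.theta_surjective hp.inList)
    (Cfsg.Agent.H65.MultE.ker_theta hp.inList).le e2 e3 e4 ?_ ?_
  · intro A
    rw [theta_wt hp]
    exact wd_phi hp tab6.ra hφ w6_block A
  · intro g hg
    obtain ⟨c₁, c₂, x, y, ⟨⟨k, hk⟩, X, hX⟩, e⟩ := pair (rgd (K := K) hp CoxeterMatrix.E₆.toCoxeterSystem p) (G1_eq_top hp _)
      (Cfsg.Agent.H162.GaussExc.coord hp) (Cfsg.Agent.Nodes.ChevChart.irr_of Cfsg.Agent.Nodes.ChevChart.irr6)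
      (J := {k | k ∈ [3, 1]}) (Pr := fun c₁ c₂ => (∃ y, c₂ = y * c₁⁻¹ * y⁻¹) ∧ ∃ X, c₁ = sg hp ![1, 0, 0, 0, 0, 1] ω * φ X)
      (fun v hv u hu => by
        obtain ⟨c₁, c₂, h1, h2, h3, h4⟩ := hpr v hv u hu
        exact ⟨c₁, c₂, h1, h2, h3, h4⟩) (not_mem_core (by norm_num) hS.1 p hp hg)
    refine ⟨x, y * k * x⁻¹, X, ?_⟩
    rw [e1, ← hX, e, hk]
    group

/-- **The row `E₆(q)`, `3 ∣ q - 1`** (S2491, S2492) -/
theorem rowA_E6 {K : Type u} [Field K] [Finite K] (h3 : 3 ∣ Nat.card K - 1) : RowA ↥(chevE6.group K) := by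
  have := Fintype.ofFinite K
  have hp := Cfsg.Agent.Nodes.KindE.isType6
  exact RowA.of_trivial (σ := StTheta.theta hp.inList K)
    ⟨StTheta.theta_surjective hp.inList, (Cfsg.Agent.H65.MultE.ker_theta hp.inList).le, Cfsg.Agent.H65.UnivE.typE6.perfect K⟩
    (Cfsg.Agent.H65.MultE.multE6 K rfl).2 (allC_stE6 h3)

end Cfsg.Agent.H374.QS
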