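import Cfsg.Agent.H374.QS.Cover
import Cfsg.Agent.H59.ESixCover
import Cfsg.Agent.H65.MultE
import Cfsg.Agent.H335.Sr.NZero
import Cfsg.Agent.H928.Ore.Block

/-!
# Elements of Steinberg's group over elements of the Chevalley group (S2491, S2492)

* `theta_gen`, `theta_stn`, `theta_sth`, `theta_Phi` : the images of the root elements, reflections and torus elements;
* `st_lift` : relations `g x_r(t) g⁻¹ = x_{r'}(t')` lift to Steinberg's group, if the kernel has order prime to the characteristic;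
* `wt_Ps` : the action of a word in the simple reflections on the torus elements `Φ(ω^m)` of Steinberg's group;
* `wd_phi` : a word fixing the roots of a block with signs `1` commutes with the block.
-/

set_option autoImplicit false
set_option linter.unusedSectionVars false

namespace Cfsg.Agent.H374.QS

open CoxeterSystem Cfsg.Agent.ChevalleyStructure.CoxeterGeom Cfsg.Agent.Tits.Roots Cfsg.Agent.Tits.Core
  Cfsg.Agent.Nodes.Reps Cfsg.Agent.Nodes.BNOf Cfsg.Agent.Nodes.RGDLib Cfsg.Agent.Nodes.Bruhat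
  Cfsg.Agent.Nodes.OppDec Cfsg.Agent.Nodes.LeviDec Cfsg.Agent.Nodes.KindChev Cfsg.Agent.Nodes.ChevCls
  Cfsg.Agent.OddHalf.NI.ModelChev Cfsg.Agent.Nodes.StabComb
  Cfsg.Agent.H162.GaussDec Cfsg.Agent.H162.GaussLevi Cfsg.Agent.H162.GaussSL Cfsg.Agent.H162.GaussReg
  Cfsg.Agent.H928.Ore.Frame Cfsg.Agent.H928.Ore.Fix
open Cfsg.Lie Cfsg.Agent.ChevalleyStructure Cfsg.Agent.ChevalleyStructure.Elts
  Cfsg.Agent.ChevalleyStructure.RootVec Cfsg.Agent.ChevalleyStructure.NPerm
  Cfsg.Agent.ChevalleyStructure.CoxeterGeomTypes Cfsg.Agent.Nodes.RGDChev Cfsg.Agent.KFacts.RgdChevCoord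
open Cfsg.Agent.ChevalleyStructure.StBasic (stn sth stn_eq sth_eq stGen_mul stGen_zero stGen_neg)
open Cfsg.Agent.H335.Sr (nc_conj)
open Cfsg.Agent.FixBN.FieldRGD (uu vv dd ww)
open Cfsg.Agent.H162.GaussExc (sg sg_mem ch_sg act_sg wd fr fr_lt)

universe u

section

variable {D : ChevalleyDatum} {l : ℕ} {M : CoxeterMatrix (Fin l)} (hp : IsType D l M) {K : Type u} [Field K]

theorem theta_gen {r : ℕ} (hr : r < D.nroots) (t : K) :
    StTheta.theta hp.inList K (D.stGen K r t) = xc hp (vec D l r) t := by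
  apply Subtype.ext
  rw [StTheta.coe_theta, StTheta.thetaGL_stGen, coe_xc hp hr]

theorem theta_stn (i : Fin l) {c : K} (hc : c ≠ 0) :
    StTheta.theta hp.inList K (stn D (D.simple i) c) = sl hp i (ww c hc) := by
  have h1 := simple_lt hp.inList (lt_rank hp i)
  have h2 := neg_lt hp.inList h1
  have e : (ww c hc : Matrix.SpecialLinearGroup (Fin 2) K) = uu c * vv (-c⁻¹) * uu c := by
    apply Subtype.ext
    change !![(0 : K), c; -c⁻¹, 0] = !![1, c; 0, 1] * !![1, 0; -c⁻¹, 1] * !![1, c; 0, 1]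
    rw [Matrix.mul_fin_two, Matrix.mul_fin_two]
    congr 1
    ext i j
    fin_cases i <;> fin_cases j <;> simp [hc]
  rw [stn_eq, map_mul, map_mul, theta_gen hp h1, theta_gen hp h2, e, map_mul, map_mul, sl_uu, sl_vv, vec_neg hp h1,
    vec_simple hp i]

theorem theta_stn_one (i : Fin l) : StTheta.theta hp.inList K (stn D (D.simple i) 1) = nc hp K i := by
  rw [theta_stn hp i one_ne_zero, sl_ww]

theorem theta_sth (i : Fin l) (c : Kˣ) :
    StTheta.theta hp.inList K (sth D (D.simple i) (c : K)) = th hp (Pi.mulSingle i c) := by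
  rw [sth_eq, map_mul, map_inv, theta_stn hp i c.ne_zero, theta_stn hp i one_ne_zero, th_mulSingle, ← map_inv,
    ← map_mul]
  congr 1
  rw [mul_inv_eq_iff_eq_mul]
  apply Subtype.ext
  change !![(0 : K), c; -(c : K)⁻¹, 0] = !![(c : K), 0; 0, (c : K)⁻¹] * !![(0 : K), 1; -1⁻¹, 0]
  rw [Matrix.mul_fin_two]
  simp

/-- the torus of Steinberg's group -/
theorem theta_Phi {Φ : (Fin l → Kˣ) →* D.SteinbergGroup K}
    (hΦ : ∀ (i : Fin l) (x : Kˣ), Φ (Pi.mulSingle i x) = sth D (D.simple i) (x : K)) (t : Fin l → Kˣ) :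
    StTheta.theta hp.inList K (Φ t) = th hp t := by
  have h : (StTheta.theta hp.inList K).comp Φ = th hp := by
    apply MonoidHom.pi_ext
    intro i x
    change StTheta.theta hp.inList K (Φ (Pi.mulSingle i x)) = _
    rw [hΦ, theta_sth]
  exact DFunLike.congr_fun h t

theorem stGen_pow (r : ℕ) (t : K) (n : ℕ) : D.stGen K r t ^ n = D.stGen K r (n * t) := by
  induction n with
  | zero => rw [pow_zero, Nat.cast_zero, zero_mul, stGen_zero]
  | succ n ih => rw [pow_succ, ih, stGen_mul, Nat.cast_succ, add_mul, one_mul]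

/-- **Relations between root elements lift.** -/
theorem st_lift (p : ℕ) [CharP K p] {n : ℕ} (hn : n.Coprime p)
    (hexp : ∀ ζ : D.SteinbergGroup K, StTheta.theta hp.inList K ζ = 1 → ζ ^ n = 1)
    (hcen : ∀ ζ : D.SteinbergGroup K, StTheta.theta hp.inList K ζ = 1 → ζ ∈ Subgroup.center (D.SteinbergGroup K))
    {g : D.SteinbergGroup K} {r r' : ℕ} (hr : r < D.nroots) (hr' : r' < D.nroots) {t t' : K}
    (h : StTheta.theta hp.inList K g * xc hp (vec D l r) t * (StTheta.theta hp.inList K g)⁻¹ = xc hp (vec D l r') t') :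
    g * D.stGen K r t * g⁻¹ = D.stGen K r' t' := by
  obtain ⟨ζ, hζ⟩ : ∃ ζ, ζ = (D.stGen K r' t')⁻¹ * (g * D.stGen K r t * g⁻¹) := ⟨_, rfl⟩
  have h1 : StTheta.theta hp.inList K ζ = 1 := by
    rw [hζ]
    simp only [map_mul, map_inv]
    rw [theta_gen hp hr, theta_gen hp hr', h, inv_mul_cancel]
  have h2 := Subgroup.mem_center_iff.1 (hcen ζ h1)
  have h3 : g * D.stGen K r t * g⁻¹ = D.stGen K r' t' * ζ := by rw [hζ]; group
  have hp1 : ∀ (r : ℕ) (t : K), D.stGen K r t ^ p = 1 := by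
    intro r t
    rw [stGen_pow, CharP.cast_eq_zero, zero_mul, stGen_zero]
  have h4 : ζ ^ p = 1 := by
    have h5 : (g * D.stGen K r t * g⁻¹) ^ p = 1 := by rw [conj_pow, hp1, mul_one, mul_inv_cancel]
    rw [h3, (show Commute (D.stGen K r' t') ζ from h2 _).mul_pow, hp1, one_mul] at h5
    exact h5
  have h5 : orderOf ζ ∣ 1 := by
    rw [← hn]
    exact Nat.dvd_gcd (orderOf_dvd_of_pow_eq_one (hexp ζ h1)) (orderOf_dvd_of_pow_eq_one h4)
  have h6 : ζ = 1 := orderOf_eq_one_iff.1 (Nat.dvd_one.1 h5)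
  rw [h3, h6, mul_one]

/-- the reflection of the exponents -/
def rcx (D : ChevalleyDatum) {l : ℕ} (i : Fin l) (m : Fin l → ℤ) : Fin l → ℤ :=
  fun k => m k - if k = i then ∑ j : Fin l, m j * D.cartan j (D.simple i) else 0

/-- a word acting on the exponents -/
def mvx (D : ChevalleyDatum) {l : ℕ} (L : List (Fin l)) (m : Fin l → ℤ) : Fin l → ℤ := L.foldr (rcx D) m

/-- the word in Steinberg's group -/
noncomputable def wt (D : ChevalleyDatum) {l : ℕ} (K : Type u) [Field K] (L : List (Fin l)) : D.SteinbergGroup K :=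
  (L.map fun i : Fin l => stn D (D.simple i) (1 : K)).prod

theorem theta_wt (L : List (Fin l)) : StTheta.theta hp.inList K (wt D K L) = wd hp K L := by
  unfold wt wd
  rw [map_list_prod, List.map_map]
  congr 1
  exact List.map_congr_left fun i _ => theta_stn_one hp i

section act

variable (p : ℕ) [CharP K p] {n : ℕ} (hn : n.Coprime p)
  (hexp : ∀ ζ : D.SteinbergGroup K, StTheta.theta hp.inList K ζ = 1 → ζ ^ n = 1)
  (hcen : ∀ ζ : D.SteinbergGroup K, StTheta.theta hp.inList K ζ = 1 → ζ ∈ Subgroup.center (D.SteinbergGroup K))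
  {Φ : (Fin l → Kˣ) →* D.SteinbergGroup K}
  (hΦ : ∀ (i : Fin l) (x : Kˣ), Φ (Pi.mulSingle i x) = sth D (D.simple i) (x : K))
  (hneg : ∀ (i j : Fin l), D.cartan j (D.neg (D.simple i)) = -D.cartan j (D.simple i))

include hn hexp hcen hΦ hneg

/-- the action of a simple reflection on the torus of Steinberg's group -/
theorem stn_Ps (w : Kˣ) (m : Fin l → ℤ) (i : Fin l) :
    stn D (D.simple i) (1 : K) * Φ (fun k => w ^ m k) * (stn D (D.simple i) (1 : K))⁻¹ =
      Φ (fun k => w ^ rcx D i m k) := by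
  have h1 := simple_lt hp.inList (lt_rank hp i)
  have h2 := neg_lt hp.inList h1
  obtain ⟨e, he⟩ : ∃ e, e = ∑ j : Fin l, m j * D.cartan j (D.simple i) := ⟨_, rfl⟩
  obtain ⟨s, hs⟩ : ∃ s, s = Φ (fun k => w ^ m k) := ⟨_, rfl⟩
  have hθ : StTheta.theta hp.inList K s = sg hp m w := by rw [hs, theta_Phi hp hΦ]; rfl
  have g1 : ∀ a : K, s * D.stGen K (D.simple i) a * s⁻¹ = D.stGen K (D.simple i) (((w ^ e : Kˣ) : K) * a) := by
    intro a
    refine st_lift hp p hn hexp hcen h1 h1 ?_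
    rw [hθ, act_sg hp m w h1, he]
  have g2 : ∀ a : K, s * D.stGen K (D.neg (D.simple i)) a * s⁻¹ =
      D.stGen K (D.neg (D.simple i)) (((w ^ (-e) : Kˣ) : K) * a) := by
    intro a
    refine st_lift hp p hn hexp hcen h2 h2 ?_
    rw [hθ, act_sg hp m w h2, he]
    congr 4
    rw [← Finset.sum_neg_distrib]
    refine Finset.sum_congr rfl fun j _ => ?_
    rw [hneg, mul_neg]
  -- `s n s⁻¹`
  have g3 : s * stn D (D.simple i) (1 : K) * s⁻¹ = stn D (D.simple i) ((w ^ e : Kˣ) : K) := by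
    have h5 : s * stn D (D.simple i) (1 : K) * s⁻¹ = (s * D.stGen K (D.simple i) 1 * s⁻¹) *
        (s * D.stGen K (D.neg (D.simple i)) (-1⁻¹) * s⁻¹) * (s * D.stGen K (D.simple i) 1 * s⁻¹) := by
      rw [stn_eq]; group
    rw [h5, g1, g2, stn_eq, mul_one]
    congr 3
    rw [zpow_neg, Units.val_inv_eq_inv_val, inv_one, mul_neg, mul_one]
  rw [← hs]
  have g4 : stn D (D.simple i) (1 : K) * s * (stn D (D.simple i) (1 : K))⁻¹ =
      (sth D (D.simple i) ((w ^ e : Kˣ) : K))⁻¹ * s := by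
    rw [sth_eq, ← g3]; group
  rw [g4, ← hΦ, hs, ← map_inv, ← map_mul]
  congr 1
  funext k
  rw [Pi.mul_apply, Pi.inv_apply]
  unfold rcx
  by_cases hk : k = i
  · subst hk
    rw [Pi.mulSingle_eq_same, if_pos rfl, ← he, zpow_sub, mul_comm]
  · rw [Pi.mulSingle_eq_of_ne hk, if_neg hk, inv_one, one_mul, sub_zero]

/-- the action of a word on the torus of Steinberg's group -/
theorem wt_Ps (w : Kˣ) (m : Fin l → ℤ) (L : List (Fin l)) :
    wt D K L * Φ (fun k => w ^ m k) * (wt D K L)⁻¹ = Φ (fun k => w ^ mvx D L m k) := by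
  induction L with
  | nil =>
    change 1 * Φ _ * 1⁻¹ = _
    rw [one_mul, inv_one, mul_one]
    rfl
  | cons i L ih =>
    have h1 : wt D K (i :: L) = stn D (D.simple i) (1 : K) * wt D K L := by
      unfold wt
      rw [List.map_cons, List.prod_cons]
    have h2 : mvx D (i :: L) m = rcx D i (mvx D L m) := rfl
    rw [h1, h2, ← stn_Ps hp p hn hexp hcen hΦ hneg, ← ih]
    group

end act

/-! ### Words commuting with a block -/

/-- the sign of a word on a root -/
def sgw (D : ChevalleyDatum) {l : ℕ} : List (Fin l) → ℕ → ℤ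
  | [], _ => 1
  | i :: L, r => NSimple.eta D i (fr D L r) * sgw D L r

theorem wd_xc (L : List (Fin l)) {r : ℕ} (hr : r < D.nroots) (a : K) :
    wd hp K L * xc hp (vec D l r) a * (wd hp K L)⁻¹ = xc hp (vec D l (fr D L r)) (((sgw D L r : ℤ) : K) * a) := by
  induction L with
  | nil =>
    change 1 * _ * 1⁻¹ = xc hp (vec D l r) (((1 : ℤ) : K) * a)
    rw [Int.cast_one, one_mul, one_mul, inv_one, mul_one]
  | cons i L ih =>
    have h1 : wd hp K (i :: L) = nc hp K i * wd hp K L := by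
      unfold wd
      rw [List.map_cons, List.prod_cons]
    have h2 : fr D (i :: L) r = D.reflectRoot i (fr D L r) := rfl
    rw [h1, h2]
    calc nc hp K i * wd hp K L * xc hp (vec D l r) a * (nc hp K i * wd hp K L)⁻¹
        = nc hp K i * (wd hp K L * xc hp (vec D l r) a * (wd hp K L)⁻¹) * (nc hp K i)⁻¹ := by group
      _ = _ := by
        rw [ih, nc_conj hp i (fr_lt hp L hr)]
        congr 1
        change _ = (((NSimple.eta D i (fr D L r) * sgw D L r : ℤ)) : K) * a
        rw [Int.cast_mul, mul_assoc]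

theorem wd_phi {n : ℕ} {r : Fin n → Fin n → ℕ} {ε : ℤ} (hr : ∀ a b, a ≠ b → r a b < D.nroots)
    {φ : Matrix.SpecialLinearGroup (Fin n) K →* ↥(D.group K)}
    (hφ : ∀ a b (hab : a ≠ b) c, φ (Matrix.SpecialLinearGroup.transvection hab c) =
      xc hp (vec D l (r a b)) ((ε : K) * c)) {L : List (Fin l)}
    (hL : ∀ a b, a ≠ b → fr D L (r a b) = r a b ∧ sgw D L (r a b) = 1)
    (A : Matrix.SpecialLinearGroup (Fin n) K) : wd hp K L * φ A * (wd hp K L)⁻¹ = φ A := by
  have h3 : (MulAut.conj (wd hp K L)).toMonoidHom.comp φ = φ := by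
    refine hom_ext fun a b hab c => ?_
    change wd hp K L * φ _ * (wd hp K L)⁻¹ = φ _
    obtain ⟨h4, h5⟩ := hL a b hab
    rw [hφ, wd_xc hp L (hr a b hab), h4, h5, Int.cast_one, one_mul]
  exact DFunLike.congr_fun h3 A

end

end Cfsg.Agent.H374.QS
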