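import Cfsg.Agent.H374.QS.ESix
import Cfsg.Agent.H928.Ore.TwFin
import Cfsg.Agent.S2108

/-!
# Ore's theorem for the covers of `²E₆(q)`, `3 ∣ q + 1` (S2491, S2492)

* `Yc` : the preimage of `²E₆(q)` in Steinberg's group of type `E₆` over the field with `q²` elements;
* `allC_Yc` : every element of `Yc` is a commutator (all `q` with `3 ∣ q + 1`, `q = 2` included);
* `rowA_twE6` : the row `²E₆(q)`, `3 ∣ q + 1`, `q ≠ 2`.
-/

set_option autoImplicit false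
set_option linter.unusedSectionVars false

namespace Cfsg.Agent.H374.QS

open CoxeterSystem Cfsg.Agent.ChevalleyStructure.CoxeterGeom Cfsg.Agent.Tits.Roots Cfsg.Agent.Tits.Core
  Cfsg.Agent.Nodes Cfsg.Agent.Nodes.Reps Cfsg.Agent.Nodes.BNOf Cfsg.Agent.Nodes.RGDLib Cfsg.Agent.Nodes.Bruhat
  Cfsg.Agent.Nodes.OppDec Cfsg.Agent.Nodes.LeviDec Cfsg.Agent.Nodes.StabComb Cfsg.Agent.Nodes.KindChev
  Cfsg.Agent.Nodes.ChevCls
  Cfsg.Agent.OddHalf.NI.ModelChev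
  Cfsg.Agent.H162.GaussDec Cfsg.Agent.H162.GaussLevi Cfsg.Agent.H162.GaussSL Cfsg.Agent.H162.GaussReg
  Cfsg.Agent.H928.Ore.Frame Cfsg.Agent.H928.Ore.Fix Cfsg.Agent.H928.Ore.Block Cfsg.Agent.H928.Ore.TwE
  Cfsg.Agent.H928.Ore.TwS Cfsg.Agent.H928.Ore.TwF Cfsg.Agent.H928.Ore.TwN Cfsg.Agent.H928.Ore.TwRow
open Cfsg.Lie Cfsg.Agent.ChevalleyStructure Cfsg.Agent.ChevalleyStructure.Elts
  Cfsg.Agent.ChevalleyStructure.NPerm
  Cfsg.Agent.ChevalleyStructure.CoxeterGeomTypes Cfsg.Agent.Nodes.RGDChev Cfsg.Agent.KFacts.RgdChevCoord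
open Cfsg.Agent.Nodes.RGDTwGen Cfsg.Agent.Nodes.RGDFold Cfsg.Agent.Nodes.RGDTwE6
open Cfsg.Agent.Nodes.RGDFoldSL (Fx mem_Fx)
open Cfsg.Agent.FixBN.FieldRGD (uu vv dd ww)
open Cfsg.Agent.H162.GaussExc (sg wd fr)
open Cfsg.Agent.H162.GaussExcMain (r6 rt6 exists_hom_D w6)
open Cfsg.Agent.H335.Sr
open Cfsg.Agent.H194.Ore (M3)
open Cfsg.Agent.H777.Ore (AllC Inv4)
open Cfsg.Agent.H6.QO Cfsg.Agent.H51.Mult
open scoped MatrixGroups

universe u

/-! ### The word -/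

/-- the word for `²E₆(q)` -/
def W26 : List (Fin 6) := [0, 5, 2, 4, 3, 2, 4, 1, 3, 2, 4, 0, 5, 2, 4, 3, 2, 4, 1, 3, 2, 4]

theorem w26_block : ∀ a b : Fin 3, a ≠ b → fr chevE6 W26 (r6 a b) = r6 a b ∧ sgw chevE6 W26 (r6 a b) = 1 := by
  decide +kernel

theorem w26_tor : (∀ s < chevE6.nroots, (3 : ℤ) ∣ ∑ i : Fin 6,
      (mvx chevE6 W26 ![1, 0, 0, 0, 0, -1] i - (![1, 0, 0, 0, 0, -1] : Fin 6 → ℤ) i) * chevE6.cartan i s) ∧
    ¬ (3 : ℤ) ∣ mvx chevE6 W26 ![1, 0, 0, 0, 0, -1] 0 - (![1, 0, 0, 0, 0, -1] : Fin 6 → ℤ) 0 := by decide +kernel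

section word

variable {K : Type u} [Field K]

theorem nc_eq (i : Fin 6) : nc RGDTwE6.hp K i =
    xc RGDTwE6.hp (vec chevE6 6 (chevE6.simple i)) 1 * xc RGDTwE6.hp (vec chevE6 6 (chevE6.neg (chevE6.simple i))) (-1) *
      xc RGDTwE6.hp (vec chevE6 6 (chevE6.simple i)) 1 := by
  have h1 := simple_lt RGDTwE6.hp.inList (lt_rank RGDTwE6.hp i)
  rw [vec_neg RGDTwE6.hp h1, vec_simple RGDTwE6.hp i, ← sl_uu, ← sl_vv, ← map_mul, ← map_mul, ← sl_ww]
  congr 1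
  apply Subtype.ext
  change !![(0 : K), 1; -1⁻¹, 0] = !![1, 1; 0, 1] * !![1, 0; -1, 1] * !![1, 1; 0, 1]
  rw [Matrix.mul_fin_two, Matrix.mul_fin_two]
  congr 1
  ext i j
  fin_cases i <;> fin_cases j <;> simp

theorem nc_comm {i j : Fin 6} (h : ∀ r ∈ [chevE6.simple i, chevE6.neg (chevE6.simple i)],
    ∀ s ∈ [chevE6.simple j, chevE6.neg (chevE6.simple j)], r < 72 ∧ s < 72 ∧ s ≠ r ∧ s ≠ chevE6.neg r ∧
      chevE6.commTerms r s = []) : nc RGDTwE6.hp K j * nc RGDTwE6.hp K i = nc RGDTwE6.hp K i * nc RGDTwE6.hp K j := by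
  have key : ∀ r ∈ [chevE6.simple i, chevE6.neg (chevE6.simple i)],
      ∀ s ∈ [chevE6.simple j, chevE6.neg (chevE6.simple j)], ∀ t u : K,
      Commute (xc RGDTwE6.hp (vec chevE6 6 s) u) (xc RGDTwE6.hp (vec chevE6 6 r) t) := by
    intro r hr s hs t u
    obtain ⟨h1, h2, h3, h4, h5⟩ := h r hr s hs
    exact xc_comm h1 h2 h3 h4 h5 t u
  rw [nc_eq, nc_eq]
  refine Commute.eq ?_
  refine ((key _ ?_ _ ?_ _ _).mul_right (key _ ?_ _ ?_ _ _)).mul_right (key _ ?_ _ ?_ _ _) |>.mul_left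
    (((key _ ?_ _ ?_ _ _).mul_right (key _ ?_ _ ?_ _ _)).mul_right (key _ ?_ _ ?_ _ _)) |>.mul_left
    (((key _ ?_ _ ?_ _ _).mul_right (key _ ?_ _ ?_ _ _)).mul_right (key _ ?_ _ ?_ _ _)) <;> simp

theorem sgY_nc (φ : K →+* K) (i : Fin 6) : sgY φ (nc RGDTwE6.hp K i) = nc RGDTwE6.hp K (ga i) := by
  have e3 : Matrix.SpecialLinearGroup.map φ (ww (1 : K) one_ne_zero) = ww 1 one_ne_zero := by
    apply Subtype.ext
    change (!![(0 : K), 1; -1⁻¹, 0]).map φ = !![(0 : K), 1; -1⁻¹, 0]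
    ext i j
    fin_cases i <;> fin_cases j <;> simp
  rw [← sl_ww, sgY_sl, e3, sl_ww]

theorem sgY_wd (φ : K →+* K) : sgY φ (wd RGDTwE6.hp K W26) = wd RGDTwE6.hp K W26 := by
  have h1 : sgY φ (wd RGDTwE6.hp K W26) = ((W26.map ga).map (nc RGDTwE6.hp K)).prod := by
    unfold wd
    rw [map_list_prod, List.map_map, List.map_map]
    congr 1
    exact List.map_congr_left fun i _ => sgY_nc φ i
  have h2 : nc RGDTwE6.hp K 5 * nc RGDTwE6.hp K 0 = nc RGDTwE6.hp K 0 * nc RGDTwE6.hp K 5 :=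
    nc_comm (by decide +kernel)
  have h3 : nc RGDTwE6.hp K 4 * nc RGDTwE6.hp K 2 = nc RGDTwE6.hp K 2 * nc RGDTwE6.hp K 4 :=
    nc_comm (by decide +kernel)
  have k1 : ∀ x, nc RGDTwE6.hp K 5 * (nc RGDTwE6.hp K 0 * x) = nc RGDTwE6.hp K 0 * (nc RGDTwE6.hp K 5 * x) :=
    fun x => by rw [← mul_assoc, h2, mul_assoc]
  have k2 : ∀ x, nc RGDTwE6.hp K 4 * (nc RGDTwE6.hp K 2 * x) = nc RGDTwE6.hp K 2 * (nc RGDTwE6.hp K 4 * x) :=
    fun x => by rw [← mul_assoc, h3, mul_assoc]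
  have h4 : W26.map ga = [5, 0, 4, 2, 3, 4, 2, 1, 3, 4, 2, 5, 0, 4, 2, 3, 4, 2, 1, 3, 4, 2] := by decide
  rw [h1, h4]
  unfold wd W26
  simp only [List.map_cons, List.map_nil, List.prod_cons, List.prod_nil, k1, k2]

theorem sg_s0 (l : Kˣ) : sg Cfsg.Agent.Nodes.KindE.isType6 ![1, 0, 0, 0, 0, -1] l = s0 l := by
  unfold sg s0
  congr 1
  funext i
  fin_cases i <;> simp

end word

/-! ### The cover -/

section cover

variable (K : Type u) [Field K] (q : ℕ)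

/-- the preimage of `²E₆(q)` in Steinberg's group -/
noncomputable def Yc : Subgroup (chevE6.SteinbergGroup K) :=
  (inc K q).range.comap (StTheta.theta (Cfsg.Agent.Nodes.KindE.isType6).inList K)

/-- the projection -/
noncomputable def pY : ↥(Yc K q) →* ↥(twistedE6 K q) :=
  (MonoidHom.ofInjective (inc_injective (K := K) q)).symm.toMonoidHom.comp
    (((StTheta.theta (Cfsg.Agent.Nodes.KindE.isType6).inList K).comp (Yc K q).subtype).codRestrict (inc K q).range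
      fun y => y.2)

variable {K q}

theorem inc_pY (y : ↥(Yc K q)) :
    inc K q (pY K q y) = StTheta.theta (Cfsg.Agent.Nodes.KindE.isType6).inList K (y : chevE6.SteinbergGroup K) := by
  have h1 : (MonoidHom.ofInjective (inc_injective (K := K) q)) (pY K q y) =
      ⟨StTheta.theta (Cfsg.Agent.Nodes.KindE.isType6).inList K (y : chevE6.SteinbergGroup K), y.2⟩ :=
    MulEquiv.apply_symm_apply _ _
  exact congrArg Subtype.val h1

theorem pY_surjective : Function.Surjective (pY K q) := by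
  intro g
  obtain ⟨u, hu⟩ := StTheta.theta_surjective (Cfsg.Agent.Nodes.KindE.isType6).inList (K := K) (inc K q g)
  refine ⟨⟨u, g, hu.symm⟩, inc_injective q ?_⟩
  rw [inc_pY]
  exact hu

theorem pY_ker {y : ↥(Yc K q)} (hy : pY K q y = 1) :
    StTheta.theta (Cfsg.Agent.Nodes.KindE.isType6).inList K (y : chevE6.SteinbergGroup K) = 1 := by
  rw [← inc_pY, hy, map_one]

theorem pY_cen : (pY K q).ker ≤ Subgroup.center ↥(Yc K q) := by
  intro y hy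
  have h1 : (y : chevE6.SteinbergGroup K) ∈ Subgroup.center (chevE6.SteinbergGroup K) := by
    rw [← Cfsg.Agent.H65.MultE.ker_theta (Cfsg.Agent.Nodes.KindE.isType6).inList]
    exact pY_ker hy
  rw [Subgroup.mem_center_iff]
  intro g
  exact Subtype.ext (Subgroup.mem_center_iff.1 h1 g)

end cover

/-! ### The pairs -/

section

variable {K : Type u} [Field K] [Fintype K] {φ : K →+* K} {q : ℕ} (hφ : ∀ t, φ t = t ^ q)
  (hqq : ∀ t : K, (t ^ q) ^ q = t)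
  {P : Matrix.SpecialLinearGroup (Fin 3) K →* ↥(chevE6.group K)}
  (hP : ∀ a b (hab : a ≠ b) c, P (Matrix.SpecialLinearGroup.transvection hab c) =
      xc RGDTwE6.hp (vec chevE6 6 (r6 a b)) (((1 : ℤ) : K) * c))
  {f : Matrix.SpecialLinearGroup (Fin 3) (Fx φ 1) →* ↥(twistedE6 K q)}
  (hf : ∀ A, inc K q (f A) = P (Matrix.SpecialLinearGroup.map (Fx φ 1).subtype A))
  {l : Kˣ} (h1 : l ≠ 1) (h2 : l * l ≠ 1)
  {s : ↥(twistedE6 K q)} (hs : inc K q s = s0 l)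

include hφ hqq hP hf h1 h2 hs

/-- the pairs for the frame; the first element is `s f(X)` -/
theorem pairsT (hZ : Subgroup.center ↥(chevE6.group K) = ⊥) (hm3 : M3 (Fx φ 1)) :
    ∀ v ∈ UNJ CoxeterMatrix.F₄.toCoxeterSystem RGDTwE6.isCartan (RGDTwE6.X φ q) JR,
      ∀ u ∈ UJ CoxeterMatrix.F₄.toCoxeterSystem RGDTwE6.isCartan (RGDTwE6.X φ q) JR, ∃ c₁ c₂, v * u = c₁ * c₂ ∧
        LP CoxeterMatrix.F₄.toCoxeterSystem RGDTwE6.isCartan (T K q) (RGDTwE6.X φ q) JR c₁ c₂ ∧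
        (∃ y, c₂ = y * c₁⁻¹ * y⁻¹) ∧ ∃ X, c₁ = s * f X := by
  have hs' : inc K q s⁻¹ = s0 l⁻¹ := by rw [map_inv, hs, s0_inv]
  have h1' : l⁻¹ ≠ 1 := by rwa [ne_eq, inv_eq_one]
  have h2' : l⁻¹ * l⁻¹ ≠ 1 := by
    rw [← mul_inv, ne_eq, inv_eq_one]
    exact h2
  have hsf := s_comm (φ := φ) hP hf hs
  have hsf' := s_comm (φ := φ) hP hf hs'
  intro v hv u hu
  obtain ⟨L, hL, rfl⟩ := lo_f hφ hqq hP hf _ hv
  obtain ⟨U, hU, rfl⟩ := up_f hφ hqq hP hf _ hu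
  obtain ⟨X, Y, hXY, hX, hY, hc⟩ := hm3 L hL U hU
  have hsT : s ∈ LJ CoxeterMatrix.F₄.toCoxeterSystem RGDTwE6.isCartan (T K q) (RGDTwE6.X φ q) JR :=
    T_le_LJ (s_T hs)
  obtain ⟨-, y, hy1, hy2⟩ := s_real hφ hqq hP hf hs hZ hX
  refine ⟨s * f X, s⁻¹ * f Y, ?_, ⟨mul_mem hsT (f_LJ hφ hqq hP hf _ X), mul_mem (inv_mem hsT) (f_LJ hφ hqq hP hf _ Y),
    (s_nf hφ hqq hP hf h1 h2 hs _ hX).2, (s_nf hφ hqq hP hf h1' h2' hs' _ hY).1⟩, ?_, X, rfl⟩
  · rw [← map_mul, hXY, map_mul, hsf]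
    group
  · have e5 : ∀ g, s⁻¹ * f g = f g * s⁻¹ := hsf'
    rcases hc with hc | hc
    · obtain ⟨g, hg⟩ := Cfsg.Agent.H150.MF.exists_conj (Cfsg.Agent.H150.MF.cls_of_irreducible hX)
        (Cfsg.Agent.H150.MF.cls_of_irreducible hY) hc.symm
      refine ⟨f g * y⁻¹, ?_⟩
      have e6 : y⁻¹ * s⁻¹ * y = s⁻¹ := by
        have : y⁻¹ * s * y = s := by
          calc y⁻¹ * s * y = y⁻¹ * (y * s * y⁻¹) * y := by rw [hy1]
            _ = s := by group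
        calc y⁻¹ * s⁻¹ * y = (y⁻¹ * s * y)⁻¹ := by group
          _ = s⁻¹ := by rw [this]
      have e7 : y⁻¹ * (f X)⁻¹ * y = f X := by
        rw [← hy2]; group
      calc s⁻¹ * f Y = s⁻¹ * f g * f X * (f g)⁻¹ := by rw [hg, map_mul, map_mul, map_inv]; group
        _ = f g * (s⁻¹ * f X) * (f g)⁻¹ := by rw [e5 g]; group
        _ = f g * ((y⁻¹ * s⁻¹ * y) * (y⁻¹ * (f X)⁻¹ * y)) * (f g)⁻¹ := by rw [e6, e7]
        _ = (f g * y⁻¹) * (f X * s)⁻¹ * (f g * y⁻¹)⁻¹ := by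
          have e8 : s⁻¹ * (f X)⁻¹ = (f X * s)⁻¹ := by group
          rw [← e8]; group
        _ = _ := by rw [← hsf]
    · have hXi : Irreducible ((X⁻¹ : Matrix.SpecialLinearGroup (Fin 3) (Fx φ 1)) :
          Matrix (Fin 3) (Fin 3) (Fx φ 1)).charpoly := by
        rw [← hc]
        exact hY
      obtain ⟨g, hg⟩ := Cfsg.Agent.H150.MF.exists_conj (Cfsg.Agent.H150.MF.cls_of_irreducible hXi)
        (Cfsg.Agent.H150.MF.cls_of_irreducible hY) hc.symm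
      refine ⟨f g, ?_⟩
      calc s⁻¹ * f Y = (s⁻¹ * f g) * (f X)⁻¹ * (f g)⁻¹ := by
            rw [hg, map_mul, map_mul, map_inv, map_inv]; group
        _ = f g * (f X * s)⁻¹ * (f g)⁻¹ := by rw [e5]; group
        _ = _ := by rw [← hsf]

end

/-! ### The row -/

/-- **Ore's theorem for the threefold cover of `²E₆(q)`**, `3 ∣ q + 1` -/
theorem cover_twE6 {K : Type u} [Field K] [Fintype K] {q : ℕ} (hq : IsPrimePow q) (hK : Fintype.card K = q ^ 2)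
    (h3 : 3 ∣ q + 1) : AllC ↥(Yc K q) ∧ Nat.card (pY K q).ker = 3 := by
  obtain ⟨φ, hφ, hqq⟩ := TwE6Basic.exists_frob hq hK
  obtain ⟨p, hpc⟩ := CharP.exists K
  have : Fact p.Prime := ⟨(CharP.char_is_prime_or_zero K p).resolve_right (CharP.char_ne_zero_of_finite K p)⟩
  have hfin : Finite (GL chevE6.Idx K) := by
    have : Finite (Matrix chevE6.Idx chevE6.Idx K) := inferInstance
    infer_instance
  have : Finite ↥(twistedE6 K q) := inferInstance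
  have hZ := Cfsg.Agent.Nodes.ChevChart.center_eq_bot (Cfsg.Agent.S1054.result (F := K) chevE6 (by simp))
  have := (Cfsg.Agent.S1070.result hq hK).1
  have R := RGDTwE6.rgd CoxeterMatrix.F₄.toCoxeterSystem hφ hqq p
  have : Finite CoxeterMatrix.F₄.Group := Cfsg.Agent.Nodes.RGDFold.finite_W (hp := RGDTwE6.hp)
    CoxeterMatrix.F₄.toCoxeterSystem RGDTwE6.isCartan RGDTwE6.foldData
  obtain ⟨P, hP⟩ := exists_hom_D RGDTwE6.hp (K := K) (ε := 1) (by norm_num) rt6.1 rt6.2.1 rt6.2.2.1 rt6.2.2.2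
  obtain ⟨f, hf⟩ := exists_f hφ hqq hP
  have hq1 : 1 < q := hq.one_lt
  -- the cube root of unity
  have h3' : 3 ∣ Nat.card K - 1 := by
    rw [Nat.card_eq_fintype_card, hK]
    have h1 : q ^ 2 - 1 = (q + 1) * (q - 1) := by rw [← Nat.sq_sub_sq, one_pow]
    rw [h1]
    exact h3.mul_right _
  obtain ⟨ω, hω⟩ := exists_omega h3'
  have hω1 : ω ≠ 1 := by
    rintro rfl
    rw [orderOf_one] at hω
    omega
  have hω2 : ω * ω ≠ 1 := by
    intro h
    have h1 := orderOf_dvd_of_pow_eq_one (x := ω) (n := 2) (by rw [pow_two]; exact h)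
    rw [hω] at h1
    omega
  have hωn : φ (ω : K) * (ω : K) = 1 := by
    rw [hφ, ← pow_succ, ← Units.val_pow_eq_pow_val]
    obtain ⟨k, hk⟩ := h3
    rw [hk, pow_mul, ← hω, pow_orderOf_eq_one, one_pow, Units.val_one]
  obtain ⟨s, hs⟩ := exists_inc hφ hqq (sgY_s0 hωn)
  obtain ⟨w, hw⟩ := exists_inc hφ hqq (sgY_wd φ)
  have hm3 : M3 (Fx φ 1) := by
    have hc := Cfsg.Agent.H928.Ore.TwFin.card_Fx hq1 hK hφ
    by_cases h : q = 2
    · exact Cfsg.Agent.H928.Ore.TwFin.m3_small (Or.inl (by rw [hc, h]))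
    · refine Cfsg.Agent.H194.Ore.m3_of_four ?_
      rw [hc]
      omega
  have hpr := pairsT hφ hqq hP hf hω1 hω2 hs hZ hm3
  obtain ⟨s', z, e1, e2, e3, e4⟩ := exists_pair h3' hω w26_tor.1 w26_tor.2
  rw [sg_s0] at e1
  let sY : ↥(Yc K q) := ⟨s', s, by rw [hs]; exact e1.symm⟩
  let wY : ↥(Yc K q) := ⟨wt chevE6 K W26, w, by rw [hw]; exact (theta_wt Cfsg.Agent.Nodes.KindE.isType6 W26).symm⟩
  let zY : ↥(Yc K q) := ⟨z, 1, by rw [map_one]; exact e3.symm⟩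
  have hsY : pY K q sY = s := by
    apply inc_injective q
    rw [inc_pY, hs]
    exact e1
  have hwY : pY K q wY = w := by
    apply inc_injective q
    rw [inc_pY, hw]
    exact theta_wt Cfsg.Agent.Nodes.KindE.isType6 W26
  have hzY : pY K q zY = 1 := by
    apply inc_injective q
    rw [inc_pY, map_one]
    exact e3
  have hzp : ∀ ζ : ↥(Yc K q), pY K q ζ = 1 → ζ ∈ Subgroup.zpowers zY := by
    intro ζ hζ
    obtain ⟨n, hn⟩ := e4 _ (pY_ker hζ)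
    exact ⟨n, Subtype.ext hn⟩
  have hG := RGDTwE6.G1_eq_top CoxeterMatrix.F₄.toCoxeterSystem hφ hqq
  have hcoord := Cfsg.Agent.H958.TS.TwCommon.coordP hφ hqq
  have hM := Cfsg.Agent.Nodes.ChevChart.irr_of Cfsg.Agent.Nodes.ChevChart.irrF
  constructor
  · refine allC_of_pairs (A := Matrix.SpecialLinearGroup (Fin 3) (Fx φ 1)) (f := f) (s := sY) (w := wY) (z := zY)
      (Cfsg.Agent.LieClassical.SLGen.commutator_eq_top (by rw [Fintype.card_fin])) pY_surjective pY_cen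
      (Subtype.ext e2) hzY hzp ?_ ?_
    · intro A
      rw [hwY]
      apply inc_injective q
      rw [map_mul, map_mul, map_inv, hw, hf]
      exact wd_phi RGDTwE6.hp rt6.1 hP w26_block _
    · intro g hg
      have hcore : g ∉ (RGD.B CoxeterMatrix.F₄.toCoxeterSystem RGDTwE6.isCartan (T K q) (RGDTwE6.X φ q)).normalCore := by
        intro h
        apply hg
        have h3 := Cfsg.Agent.H162.GaussMain.core_le_ker R (MonoidHom.id ↥(twistedE6 K q)) Function.surjective_id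
          (fun x hx => by
            rw [MonoidHom.mem_ker] at hx
            change x = 1 at hx
            rw [hx]
            exact one_mem _) h
        exact h3
      obtain ⟨c₁, c₂, x, y, ⟨⟨k, hk⟩, X, hX⟩, e⟩ := pair R hG hcoord hM (J := JR)
        (Pr := fun c₁ c₂ => (∃ y, c₂ = y * c₁⁻¹ * y⁻¹) ∧ ∃ X, c₁ = s * f X) (fun v hv u hu => by
          obtain ⟨c₁, c₂, g1, g2, g3, g4⟩ := hpr v hv u hu
          exact ⟨c₁, c₂, g1, g2, g3, g4⟩) hcore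
      refine ⟨x, y * k * x⁻¹, X, ?_⟩
      rw [hsY, ← hX, e, hk]
      group
  · have h5 : (pY K q).ker = Subgroup.zpowers zY := le_antisymm hzp (Subgroup.zpowers_le.2 hzY)
    have h6 : Subgroup.zpowers z = (StTheta.theta (Cfsg.Agent.Nodes.KindE.isType6).inList K).ker :=
      le_antisymm (Subgroup.zpowers_le.2 e3) e4
    rw [h5, Nat.card_zpowers, ← Subgroup.orderOf_coe, ← Nat.card_zpowers]
    change Nat.card (Subgroup.zpowers z) = 3
    rw [h6, card_ker h3']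

/-- the threefold cover -/
theorem pce_pY {K : Type u} [Field K] [Fintype K] {q : ℕ} (hq : IsPrimePow q) (hK : Fintype.card K = q ^ 2)
    (h3 : 3 ∣ q + 1) : PCE (pY K q) :=
  ⟨pY_surjective, pY_cen, perfect_of_allC (cover_twE6 hq hK h3).1⟩

/-- **The row `²E₆(q)`, `3 ∣ q + 1`, `q ≠ 2`** (S2491, S2492) -/
theorem rowA_twE6 {K : Type u} [Field K] [Fintype K] {q : ℕ} (hq : IsPrimePow q) (hK : Fintype.card K = q ^ 2)
    (h3 : 3 ∣ q + 1) (h2 : q ≠ 2) : RowA ↥(twistedE6 K q) := by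
  obtain ⟨h4, h5⟩ := cover_twE6 hq hK h3
  refine RowA.of_univ (Cfsg.Agent.S2108.result hq hK h2) (pce_pY hq hK h3) ?_ h4
  rw [h5, Nat.gcd_eq_left h3, Nat.card_congr Multiplicative.toAdd, Nat.card_zmod]

end Cfsg.Agent.H374.QS
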